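import Cfsg.Agent.H4.Small
import Cfsg.Agent.H278.ThompsonSurj
import Cfsg.Agent.Cit.OneBasic
import Mathlib

/-!
# Normalizers of the Sylow 2-subgroup of `2⁴:A₅` (helper6)

`L/V ≃ A₅`, `V` elementary abelian of order 16 with `C_L(V) = V`, `T₀` a Sylow 2-subgroup of `L`:
* `card_cent_le`: the elements of `L` inducing an involution on `V` centralize at most 4 elements of `V`;
* `unique_other`: `T₀` has at most one elementary abelian subgroup of order 16 apart from `V`;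
* `normalizer_le`: if a Sylow 2-subgroup of `G` normalizes `T₀` and `V` then `N_G(T₀) ≤ N_G(V)`.
-/

set_option autoImplicit false

namespace Cfsg.Agent.H6.TwoEA

open Subgroup

variable {G : Type*} [Group G]

theorem five_chk : ∀ t : alternatingGroup (Fin 5), t * t = 1 → t ≠ 1 →
    ∃ y : alternatingGroup (Fin 5), (t * (y * t * y⁻¹)) ^ 5 = 1 ∧ t * (y * t * y⁻¹) ≠ 1 := by
  decide +kernel

/-- the fixed points of an automorphism of order 5 -/
theorem card_fix {V : Type*} [Group V] [Finite V] (φ : MulAut V) (h5 : φ ^ 5 = 1) :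
    Nat.card V ≡ Nat.card {v : V // φ v = v} [MOD 5] := by
  have h5' : Fact (Nat.Prime 5) := ⟨by norm_num⟩
  have hp : IsPGroup 5 (Subgroup.zpowers φ) := by
    rw [IsPGroup.iff_card]
    have h1 : Nat.card (Subgroup.zpowers φ) ∣ 5 ^ 1 := by
      rw [Nat.card_zpowers, pow_one]
      exact orderOf_dvd_of_pow_eq_one h5
    obtain ⟨k, -, hk⟩ := (Nat.dvd_prime_pow (by norm_num)).mp h1
    exact ⟨k, hk⟩
  have h1 := hp.card_modEq_card_fixedPoints V
  have h2 : MulAction.fixedPoints (Subgroup.zpowers φ) V = {v : V | φ v = v} := by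
    ext v
    rw [MulAction.mem_fixedPoints]
    constructor
    · intro h
      exact h ⟨φ, mem_zpowers φ⟩
    · intro h ⟨ψ, hψ⟩
      have h3 : Subgroup.zpowers φ ≤ MulAction.stabilizer (MulAut V) v := by
        rw [zpowers_le, MulAction.mem_stabilizer_iff]; exact h
      exact h3 hψ
  rw [h2] at h1
  exact h1

theorem mem_inf_cent {V : Subgroup G} {x v : G} : v ∈ V ⊓ centralizer {x} ↔ v ∈ V ∧ v * x = x * v := by
  rw [mem_inf, mem_centralizer_singleton_iff]

/-- the number of fixed points of an element whose fifth power centralizes `V` -/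
theorem fix_mod [Finite G] {L V : Subgroup G} (hLV : L ≤ normalizer (V : Set G)) (w : L)
    (h5 : ∀ v ∈ V, (w : G) ^ 5 * v = v * (w : G) ^ 5) :
    Nat.card ↥V ≡ Nat.card ↥(V ⊓ centralizer {(w : G)} : Subgroup G) [MOD 5] := by
  set φ : MulAut ↥V := H4.Small.act hLV w with hφ
  have hφv : ∀ v : V, ((φ v : ↥V) : G) = w * v * (w : G)⁻¹ := fun v => rfl
  have hφ5 : φ ^ 5 = 1 := by
    rw [hφ, ← map_pow]
    apply MulEquiv.ext
    intro v
    apply Subtype.ext
    show ((w ^ 5 : L) : G) * v * ((w ^ 5 : L) : G)⁻¹ = v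
    have h1 := h5 v v.2
    have h2 : ((w ^ 5 : L) : G) = (w : G) ^ 5 := rfl
    rw [h2, h1]; group
  have hmod := card_fix φ hφ5
  have hfix : Nat.card {v : V // φ v = v} = Nat.card ↥(V ⊓ centralizer {(w : G)} : Subgroup G) := by
    refine Nat.card_congr ⟨fun v => ⟨v.1.1, mem_inf_cent.2 ⟨v.1.2, ?_⟩⟩, fun v => ⟨⟨v.1, (mem_inf.1 v.2).1⟩, ?_⟩,
      fun v => rfl, fun v => rfl⟩
    · have h1 := hφv v.1
      rw [v.2] at h1
      exact eq_mul_inv_iff_mul_eq.1 h1
    · apply Subtype.ext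
      rw [hφv]
      have h1 := (mem_inf_cent.1 v.2).2
      rw [mul_inv_eq_iff_eq_mul]; exact h1.symm
  rw [hfix] at hmod
  exact hmod

theorem exists_five : ∃ c : alternatingGroup (Fin 5), c ^ 5 = 1 ∧ c ≠ 1 := by decide +kernel

/-- **`V` is irreducible.** -/
theorem irred [Finite G] {L V W : Subgroup G} (hLV : L ≤ normalizer (V : Set G)) (hLW : L ≤ normalizer (W : Set G))
    (hWV : W ≤ V) (hV : Nat.card ↥V = 16) (hc : ∀ a ∈ V, ∀ b ∈ V, a * b = b * a)
    (hcen : ∀ x ∈ L, (∀ v ∈ V, x * v = v * x) → x ∈ V)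
    (ψ : L →* alternatingGroup (Fin 5)) (hψ : Function.Surjective ψ) (hk : ∀ x : L, ψ x = 1 ↔ (x : G) ∈ V) :
    W = ⊥ ∨ W = V := by
  obtain ⟨c, hc5, hc1⟩ := exists_five
  obtain ⟨w, rfl⟩ := hψ c
  have hw5V : (w : G) ^ 5 ∈ V := (hk (w ^ 5)).1 (by rw [map_pow]; exact hc5)
  have hwV : (w : G) ∉ V := fun h => hc1 ((hk _).2 h)
  have h5 : ∀ v ∈ V, (w : G) ^ 5 * v = v * (w : G) ^ 5 := fun v hv => hc _ hw5V v hv
  have hmod := fix_mod hLV w h5
  have hmodW := fix_mod hLW w (fun v hv => h5 v (hWV hv))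
  have hdvd : ∀ A : Subgroup G, A ≤ V → Nat.card ↥A ∣ 2 ^ 4 := fun A hA => by
    have := Subgroup.card_dvd_of_le hA
    rwa [hV] at this
  rw [hV] at hmod
  have h1 : Nat.card ↥(V ⊓ centralizer {(w : G)} : Subgroup G) = 1 := by
    obtain ⟨k, hk4, hk'⟩ := (Nat.dvd_prime_pow Nat.prime_two).1 (hdvd (V ⊓ centralizer {(w : G)}) inf_le_left)
    rw [hk'] at hmod ⊢
    interval_cases k
    · norm_num
    · exact absurd hmod (by decide)
    · exact absurd hmod (by decide)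
    · exact absurd hmod (by decide)
    · exfalso
      have hVw : V ⊓ centralizer {(w : G)} = V :=
        Subgroup.eq_of_le_of_card_ge inf_le_left (by rw [hk', hV]; norm_num)
      apply hwV
      apply hcen _ w.2
      intro v hv
      rw [← hVw] at hv
      exact (mem_inf_cent.1 hv).2.symm
  have h2 : Nat.card ↥(W ⊓ centralizer {(w : G)} : Subgroup G) = 1 := by
    have h3 := Subgroup.card_dvd_of_le (inf_le_inf_right (centralizer {(w : G)}) hWV)
    rw [h1] at h3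
    exact Nat.dvd_one.1 h3
  rw [h2] at hmodW
  obtain ⟨k, hk4, hk'⟩ := (Nat.dvd_prime_pow Nat.prime_two).1 (hdvd W hWV)
  rw [hk'] at hmodW
  interval_cases k
  · left
    exact Subgroup.card_eq_one.1 (by rw [hk']; norm_num)
  · exact absurd hmodW (by decide)
  · exact absurd hmodW (by decide)
  · exact absurd hmodW (by decide)
  · right
    exact Subgroup.eq_of_le_of_card_ge hWV (by rw [hk', hV]; norm_num)

/-- **The elements inducing an involution centralize at most four elements.** -/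
theorem card_cent_le [Finite G] {L V : Subgroup G} (hLV : L ≤ normalizer (V : Set G)) (hV : Nat.card ↥V = 16)
    (hc : ∀ a ∈ V, ∀ b ∈ V, a * b = b * a) (hcen : ∀ x ∈ L, (∀ v ∈ V, x * v = v * x) → x ∈ V)
    (ψ : L →* alternatingGroup (Fin 5)) (hψ : Function.Surjective ψ) (hk : ∀ x : L, ψ x = 1 ↔ (x : G) ∈ V)
    {x : G} (hx : x ∈ L) (hxV : x ∉ V) (hxx : x * x ∈ V) : Nat.card ↥(V ⊓ centralizer {x} : Subgroup G) ≤ 4 := by
  by_contra hcon
  -- the order of subgroups of `V`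
  have hdvd : ∀ A : Subgroup G, A ≤ V → Nat.card ↥A ∣ 2 ^ 4 := fun A hA => by
    have := Subgroup.card_dvd_of_le hA
    rwa [hV] at this
  have h8 : 8 ≤ Nat.card ↥(V ⊓ centralizer {x} : Subgroup G) := by
    obtain ⟨k, hk4, hk⟩ := (Nat.dvd_prime_pow Nat.prime_two).1 (hdvd (V ⊓ centralizer {x}) inf_le_left)
    rw [hk] at hcon ⊢
    have : ¬ k ≤ 2 := fun h => hcon ((Nat.pow_le_pow_right (by norm_num) h).trans (by norm_num))
    calc 8 = 2 ^ 3 := by norm_num
      _ ≤ 2 ^ k := Nat.pow_le_pow_right (by norm_num) (by omega)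
  have ht1 : ψ ⟨x, hx⟩ ≠ 1 := fun h => hxV ((hk _).1 h)
  have ht2 : ψ ⟨x, hx⟩ * ψ ⟨x, hx⟩ = 1 := by
    rw [← map_mul]; exact (hk _).2 hxx
  obtain ⟨y', hy5, hyn⟩ := five_chk _ ht2 ht1
  obtain ⟨⟨y, hy⟩, rfl⟩ := hψ y'
  set w : L := ⟨x, hx⟩ * (⟨y, hy⟩ * ⟨x, hx⟩ * ⟨y, hy⟩⁻¹) with hw
  have hw5 : ψ (w ^ 5) = 1 := by
    rw [map_pow, hw, map_mul, map_mul, map_mul, map_inv]; exact hy5
  have hwn : ψ w ≠ 1 := by
    rw [hw, map_mul, map_mul, map_mul, map_inv]; exact hyn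
  have hwV : (w : G) ∉ V := fun h => hwn ((hk _).2 h)
  have hw5V : (w : G) ^ 5 ∈ V := (hk _).1 hw5
  -- the fixed points of `w`
  set φ : MulAut ↥V := H4.Small.act hLV w with hφ
  have hφv : ∀ v : V, ((φ v : ↥V) : G) = w * v * (w : G)⁻¹ := fun v => rfl
  have hφ5 : φ ^ 5 = 1 := by
    rw [hφ, ← map_pow]
    apply MulEquiv.ext
    intro v
    apply Subtype.ext
    show ((w ^ 5 : L) : G) * v * ((w ^ 5 : L) : G)⁻¹ = v
    have h1 := hc _ hw5V v v.2
    have h2 : ((w ^ 5 : L) : G) = (w : G) ^ 5 := rfl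
    rw [h2, h1]; group
  have hmod := card_fix φ hφ5
  have hfix : Nat.card {v : V // φ v = v} = Nat.card ↥(V ⊓ centralizer {(w : G)} : Subgroup G) := by
    refine Nat.card_congr ⟨fun v => ⟨v.1.1, mem_inf_cent.2 ⟨v.1.2, ?_⟩⟩, fun v => ⟨⟨v.1, (mem_inf.1 v.2).1⟩, ?_⟩,
      fun v => rfl, fun v => rfl⟩
    · have h1 := hφv v.1
      rw [v.2] at h1
      exact eq_mul_inv_iff_mul_eq.1 h1
    · apply Subtype.ext
      rw [hφv]
      have h1 := (mem_inf_cent.1 v.2).2
      rw [mul_inv_eq_iff_eq_mul]; exact h1.symm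
  rw [hV, hfix] at hmod
  -- the intersection of the two hyperplanes
  set A : Subgroup G := V ⊓ centralizer {x} with hA
  set B : Subgroup G := V ⊓ centralizer {y * x * y⁻¹} with hB
  have hAB : Nat.card ↥B = Nat.card ↥A := by
    have h1 : A.map (MulAut.conj y).toMonoidHom = B := by
      ext g
      constructor
      · rintro ⟨v, hv, rfl⟩
        obtain ⟨h2, h3⟩ := mem_inf_cent.1 hv
        refine mem_inf_cent.2 ⟨(mem_normalizer_iff.1 (hLV hy) v).1 h2, ?_⟩
        show y * v * y⁻¹ * (y * x * y⁻¹) = y * x * y⁻¹ * (y * v * y⁻¹)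
        calc y * v * y⁻¹ * (y * x * y⁻¹) = y * (v * x) * y⁻¹ := by group
          _ = y * (x * v) * y⁻¹ := by rw [h3]
          _ = _ := by group
      · intro hg
        obtain ⟨h2, h3⟩ := mem_inf_cent.1 hg
        refine ⟨y⁻¹ * g * y, mem_inf_cent.2 ⟨?_, ?_⟩, ?_⟩
        · rw [mem_normalizer_iff.1 (hLV hy)]
          have : y * (y⁻¹ * g * y) * y⁻¹ = g := by group
          rw [this]; exact h2
        · calc y⁻¹ * g * y * x = y⁻¹ * (g * (y * x * y⁻¹)) * y := by group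
            _ = y⁻¹ * (y * x * y⁻¹ * g) * y := by rw [h3]
            _ = _ := by group
        · show y * (y⁻¹ * g * y) * y⁻¹ = g
          group
    rw [← h1, Subgroup.card_map_of_injective (MulAut.conj y).injective]
  have hidx : ∀ C : Subgroup G, C ≤ V → Nat.card ↥C * C.relIndex V = 16 := by
    intro C hC
    rw [← hV]
    have h1 := (C.subgroupOf V).card_mul_index
    rwa [Nat.card_congr (Subgroup.subgroupOfEquivOfLe hC).toEquiv] at h1
  have hA2 : A.relIndex V ≤ 2 := by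
    have := hidx A inf_le_left
    by_contra h
    have h2 : 3 ≤ A.relIndex V := by omega
    have := Nat.mul_le_mul h8 h2
    omega
  have hB2 : B.relIndex V ≤ 2 := by
    have := hidx B inf_le_left
    rw [hAB] at this
    by_contra h
    have h2 : 3 ≤ B.relIndex V := by omega
    have := Nat.mul_le_mul h8 h2
    omega
  have hI := hidx (A ⊓ B) (inf_le_left.trans inf_le_left)
  have hI2 : (A ⊓ B).relIndex V ≤ 4 := (Subgroup.relIndex_inf_le).trans (by
    calc A.relIndex V * B.relIndex V ≤ 2 * 2 := Nat.mul_le_mul hA2 hB2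
      _ = 4 := by norm_num)
  have hI4 : 4 ≤ Nat.card ↥(A ⊓ B : Subgroup G) := by
    by_contra h
    have h2 : Nat.card ↥(A ⊓ B : Subgroup G) ≤ 3 := by omega
    have := Nat.mul_le_mul h2 hI2
    omega
  have hle : A ⊓ B ≤ V ⊓ centralizer {(w : G)} := by
    intro v hv
    obtain ⟨h1, h2⟩ := mem_inf.1 hv
    obtain ⟨h3, h4⟩ := mem_inf_cent.1 h1
    obtain ⟨-, h5⟩ := mem_inf_cent.1 h2
    refine mem_inf_cent.2 ⟨h3, ?_⟩
    show v * (x * (y * x * y⁻¹)) = x * (y * x * y⁻¹) * v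
    rw [← mul_assoc, h4, mul_assoc, h5, ← mul_assoc]
  have h4w : 4 ≤ Nat.card ↥(V ⊓ centralizer {(w : G)} : Subgroup G) :=
    hI4.trans (Nat.le_of_dvd Nat.card_pos (Subgroup.card_dvd_of_le hle))
  have h16 : Nat.card ↥(V ⊓ centralizer {(w : G)} : Subgroup G) = 16 := by
    obtain ⟨k, hk4, hk⟩ := (Nat.dvd_prime_pow Nat.prime_two).1 (hdvd (V ⊓ centralizer {(w : G)}) inf_le_left)
    rw [hk] at h4w hmod ⊢
    interval_cases k
    · norm_num at h4w
    · norm_num at h4w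
    · exact absurd hmod (by decide)
    · exact absurd hmod (by decide)
    · norm_num
  have hVw : V ⊓ centralizer {(w : G)} = V :=
    Subgroup.eq_of_le_of_card_ge inf_le_left (by rw [h16, hV])
  apply hwV
  apply hcen _ w.2
  intro v hv
  rw [← hVw] at hv
  exact (mem_inf_cent.1 hv).2.symm

/-- **At most one further elementary abelian subgroup of order 16.** -/
theorem unique_other [Finite G] {V T0 : Subgroup G} (hVT : V ≤ T0) (hV : Nat.card ↥V = 16) (hT : Nat.card ↥T0 = 64)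
    (hn : T0 ≤ normalizer (V : Set G)) (hc : ∀ a ∈ V, ∀ b ∈ V, a * b = b * a) (hs : ∀ a ∈ V, a * a = 1)
    (hx : ∀ x ∈ T0, x ∉ V → x * x = 1 → Nat.card ↥(V ⊓ centralizer {x} : Subgroup G) ≤ 4)
    {A A' : Subgroup G} (hA : A ≤ T0) (hAc : ∀ a ∈ A, ∀ b ∈ A, a * b = b * a) (hAs : ∀ a ∈ A, a * a = 1)
    (hA16 : Nat.card ↥A = 16) (hAV : A ≠ V)
    (hA' : A' ≤ T0) (hAc' : ∀ a ∈ A', ∀ b ∈ A', a * b = b * a) (hAs' : ∀ a ∈ A', a * a = 1)
    (hA16' : Nat.card ↥A' = 16) (hAV' : A' ≠ V) : A' ≤ A := by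
  -- the properties of one subgroup
  have key : ∀ A : Subgroup G, A ≤ T0 → (∀ a ∈ A, ∀ b ∈ A, a * b = b * a) → (∀ a ∈ A, a * a = 1) → Nat.card ↥A = 16 →
      A ≠ V → (∀ t ∈ T0, ∃ a ∈ A, ∃ v ∈ V, t = a * v) ∧ (∀ a ∈ A, a ∉ V → V ⊓ centralizer {a} ≤ A) ∧
        ∃ a ∈ A, a ∉ V := by
    intro A hA hAc hAs hA16 hAV
    have hex : ∃ a ∈ A, a ∉ V := by
      by_contra h
      push Not at h
      exact hAV (Subgroup.eq_of_le_of_card_ge h (by rw [hA16, hV]))
    have hle : ∀ a ∈ A, V ⊓ A ≤ V ⊓ centralizer {a} := by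
      intro a ha v hv
      obtain ⟨h1, h2⟩ := mem_inf.1 hv
      exact mem_inf_cent.2 ⟨h1, hAc v h2 a ha⟩
    obtain ⟨a0, ha0, ha0V⟩ := hex
    have h4 : Nat.card ↥(V ⊓ A : Subgroup G) ≤ 4 :=
      (Nat.le_of_dvd Nat.card_pos (Subgroup.card_dvd_of_le (hle a0 ha0))).trans (hx a0 (hA ha0) ha0V (hAs a0 ha0))
    -- `A V ≤ T0`
    have hAN : A ≤ normalizer (V : Set G) := hA.trans hn
    have hsup : A ⊔ V ≤ T0 := sup_le hA hVT
    have hcs : Nat.card ↥(A ⊔ V : Subgroup G) * Nat.card ↥(V ⊓ A : Subgroup G) = 256 := by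
      have h1 := H278.ThompsonSurj.card_sup_mul hAN
      rw [hA16, hV, sup_comm] at h1
      exact h1
    have h64 : Nat.card ↥(A ⊔ V : Subgroup G) ≤ 64 := by
      rw [← hT]; exact Nat.le_of_dvd Nat.card_pos (Subgroup.card_dvd_of_le hsup)
    have h4' : Nat.card ↥(V ⊓ A : Subgroup G) = 4 := by
      have := Nat.mul_le_mul h64 (le_refl (Nat.card ↥(V ⊓ A : Subgroup G)))
      omega
    have h64' : Nat.card ↥(A ⊔ V : Subgroup G) = 64 := by
      rw [h4'] at hcs; omega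
    have heq : A ⊔ V = T0 := Subgroup.eq_of_le_of_card_ge hsup (by rw [h64', hT])
    refine ⟨?_, ?_, a0, ha0, ha0V⟩
    · intro t ht
      rw [← heq] at ht
      exact Cit.OneBasic.exists_mul_of_mem_sup hAN ht
    · intro a ha haV
      have h1 : V ⊓ A = V ⊓ centralizer {a} :=
        Subgroup.eq_of_le_of_card_ge (hle a ha) (by rw [h4']; exact hx a (hA ha) haV (hAs a ha))
      rw [← h1]; exact inf_le_right
  obtain ⟨k1, k2, -⟩ := key A hA hAc hAs hA16 hAV
  obtain ⟨k1', k2', a0, ha0, ha0V⟩ := key A' hA' hAc' hAs' hA16' hAV'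
  intro a' ha'
  by_cases hV' : a' ∈ V
  · -- `a' ∈ V ∩ A' ≤ C_V(a0) = C_V(a1) ≤ A`
    obtain ⟨a1, ha1, v, hv, e⟩ := k1 a0 (hA' ha0)
    have ha1V : a1 ∉ V := fun h => ha0V (by rw [e]; exact V.mul_mem h hv)
    apply k2 a1 ha1 ha1V
    refine mem_inf_cent.2 ⟨hV', ?_⟩
    have h1 : a' * a0 = a0 * a' := hAc' a' ha' a0 ha0
    rw [e] at h1
    have h2 := hc a' hV' v hv
    have h3 : a1 = a1 * v * v⁻¹ := by group
    calc a' * a1 = a' * (a1 * v) * v⁻¹ := by group
      _ = a1 * v * a' * v⁻¹ := by rw [h1]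
      _ = a1 * (v * a') * v⁻¹ := by group
      _ = a1 * (a' * v) * v⁻¹ := by rw [h2]
      _ = a1 * a' := by group
  · obtain ⟨a, ha, v, hv, e⟩ := k1 a' (hA' ha')
    have haV : a ∉ V := fun h => hV' (by rw [e]; exact V.mul_mem h hv)
    have h1 := hAs' a' ha'
    rw [e] at h1
    have h2 := hAs a ha
    have h3 := hs v hv
    have h4 : v * a = a * v := by
      have h5 : a⁻¹ = a := inv_eq_of_mul_eq_one_left h2
      have h6 : v⁻¹ = v := inv_eq_of_mul_eq_one_left h3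
      calc v * a = a⁻¹ * (a * v * (a * v)) * v⁻¹ := by group
        _ = a⁻¹ * v⁻¹ := by rw [h1]; group
        _ = a * v := by rw [h5, h6]
    have h5 := k2 a ha haV (mem_inf_cent.2 ⟨hv, h4⟩)
    rw [e]
    exact A.mul_mem ha h5

theorem mem_norm_iff [Finite G] {V : Subgroup G} {g : G} :
    g ∈ normalizer (V : Set G) ↔ V.map (MulAut.conj g).toMonoidHom = V := by
  constructor
  · intro h
    ext x
    constructor
    · rintro ⟨v, hv, rfl⟩
      exact (mem_normalizer_iff.1 h v).1 hv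
    · intro hx
      refine ⟨g⁻¹ * x * g, ?_, ?_⟩
      · show g⁻¹ * x * g ∈ V
        rw [mem_normalizer_iff.1 h]
        have : g * (g⁻¹ * x * g) * g⁻¹ = x := by group
        rw [this]; exact hx
      · show g * (g⁻¹ * x * g) * g⁻¹ = x
        group
  · intro h
    rw [mem_normalizer_iff]
    intro x
    constructor
    · intro hx
      rw [← h]; exact ⟨x, hx, rfl⟩
    · intro hx
      rw [← h] at hx
      obtain ⟨y, hy, e⟩ := hx
      have h3 : y = x := (MulAut.conj g).injective e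
      rw [← h3]; exact hy

/-- **The normalizer of `T₀` normalizes `V`.** -/
theorem normalizer_le [Finite G] (T : Sylow 2 G) {V T0 : Subgroup G} (hTV : (T : Subgroup G) ≤ normalizer (V : Set G))
    (hTT : (T : Subgroup G) ≤ normalizer (T0 : Set G)) (hVT : V ≤ T0) (hV : Nat.card ↥V = 16) (hT : Nat.card ↥T0 = 64)
    (hn : T0 ≤ normalizer (V : Set G)) (hc : ∀ a ∈ V, ∀ b ∈ V, a * b = b * a) (hs : ∀ a ∈ V, a * a = 1)
    (hx : ∀ x ∈ T0, x ∉ V → x * x = 1 → Nat.card ↥(V ⊓ centralizer {x} : Subgroup G) ≤ 4) :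
    normalizer (T0 : Set G) ≤ normalizer (V : Set G) := by
  by_contra hcon
  obtain ⟨g, hg, hgV⟩ := SetLike.not_le_iff_exists.1 hcon
  set H : Subgroup G := normalizer (T0 : Set G) with hH
  -- the conjugates
  have hcj : ∀ h ∈ H, (V.map (MulAut.conj h).toMonoidHom ≤ T0) := by
    rintro h hh _ ⟨v, hv, rfl⟩
    exact (mem_normalizer_iff.1 hh v).1 (hVT hv)
  have hcc : ∀ h : G, ∀ a ∈ V.map (MulAut.conj h).toMonoidHom, ∀ b ∈ V.map (MulAut.conj h).toMonoidHom, a * b = b * a := by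
    rintro h _ ⟨a, ha, rfl⟩ _ ⟨b, hb, rfl⟩
    rw [← map_mul, ← map_mul, hc a ha b hb]
  have hss : ∀ h : G, ∀ a ∈ V.map (MulAut.conj h).toMonoidHom, a * a = 1 := by
    rintro h _ ⟨a, ha, rfl⟩
    rw [← map_mul, hs a ha, map_one]
  have h16 : ∀ h : G, Nat.card ↥(V.map (MulAut.conj h).toMonoidHom) = 16 := by
    intro h
    rw [Subgroup.card_map_of_injective (MulAut.conj h).injective, hV]
  have hle : ∀ h1 ∈ H, ∀ h2 ∈ H, h1 ∉ normalizer (V : Set G) → h2 ∉ normalizer (V : Set G) →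
      V.map (MulAut.conj h2).toMonoidHom ≤ V.map (MulAut.conj h1).toMonoidHom := by
    intro h1 hh1 h2 hh2 hv1 hv2
    exact unique_other hVT hV hT hn hc hs hx (hcj h1 hh1) (hcc h1) (hss h1) (h16 h1) (fun h => hv1 (mem_norm_iff.2 h))
      (hcj h2 hh2) (hcc h2) (hss h2) (h16 h2) (fun h => hv2 (mem_norm_iff.2 h))
  have hmul : ∀ h1 ∈ H, ∀ h2 ∈ H, h1 ∉ normalizer (V : Set G) → h2 ∉ normalizer (V : Set G) →
      h1⁻¹ * h2 ∈ normalizer (V : Set G) := by
    intro h1 hh1 h2 hh2 hv1 hv2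
    rw [mem_norm_iff]
    apply Subgroup.eq_of_le_of_card_ge
    · rintro _ ⟨v, hv, rfl⟩
      have h3 : h2 * v * h2⁻¹ ∈ V.map (MulAut.conj h1).toMonoidHom := hle h1 hh1 h2 hh2 hv1 hv2 ⟨v, hv, rfl⟩
      obtain ⟨u, hu, e⟩ := h3
      have e' : h1 * u * h1⁻¹ = h2 * v * h2⁻¹ := e
      show h1⁻¹ * h2 * v * (h1⁻¹ * h2)⁻¹ ∈ V
      have h4 : h1⁻¹ * h2 * v * (h1⁻¹ * h2)⁻¹ = u := by
        calc h1⁻¹ * h2 * v * (h1⁻¹ * h2)⁻¹ = h1⁻¹ * (h2 * v * h2⁻¹) * h1 := by group
          _ = u := by rw [← e']; group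
      rw [h4]; exact hu
    · rw [Subgroup.card_map_of_injective (MulAut.conj _).injective]
  -- the index is two
  have hidx : ((normalizer (V : Set G)).subgroupOf H).index = 2 := by
    rw [Subgroup.index_eq_two_iff]
    refine ⟨⟨g, hg⟩, fun b => ?_⟩
    rw [mem_subgroupOf, mem_subgroupOf]
    by_cases hb : (b : G) ∈ normalizer (V : Set G)
    · right
      refine ⟨hb, fun h => hgV ?_⟩
      have h1 := mul_mem (inv_mem hb) h
      have h2 : (b : G)⁻¹ * ((b * ⟨g, hg⟩ : ↥H) : G) = g := by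
        show (b : G)⁻¹ * (b * g) = g
        group
      rwa [h2] at h1
    · left
      refine ⟨?_, hb⟩
      have h1 := hmul (b : G)⁻¹ (inv_mem b.2) g hg (fun h => hb (by simpa using inv_mem h)) hgV
      rwa [inv_inv] at h1
  have h1 : (T : Subgroup G).subgroupOf H ≤ (normalizer (V : Set G)).subgroupOf H := by
    intro x hx
    exact mem_subgroupOf.2 (hTV (mem_subgroupOf.1 hx))
  have h2 := Subgroup.index_dvd_of_le h1
  rw [hidx] at h2
  have h3 : ((T : Subgroup G).subgroupOf H).index ∣ (T : Subgroup G).index := Subgroup.relIndex_dvd_index_of_le hTT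
  have h2f : Fact (Nat.Prime 2) := ⟨Nat.prime_two⟩
  exact T.not_dvd_index (h2.trans h3)

end Cfsg.Agent.H6.TwoEA
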